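import Cfsg.Agent.H930.FC.Crd
import Cfsg.Agent.H446.FC.V7

/-!
# `F₄(q)`, `q` odd: commutators in the unipotent radical of the parabolic of type `B₃` (helper230, S2452)

`R = Q K IV = VK K {k ≠ 0}` of order `q¹⁵`, `A = Q K I2` of order `q⁷` central in `R`.

* `exists_B` : `x ∈ R`, `x ∉ A` : there is `B ≤ A`, `q² ≤ |B|`, with `x b` conjugate to `x` for `b ∈ B`.
-/

set_option autoImplicit false
set_option linter.unusedSectionVars false

namespace Cfsg.Agent.H230.FR

open CoxeterSystem Cfsg.Agent.ChevalleyStructure.CoxeterGeom Cfsg.Agent.Tits.Roots Cfsg.Agent.Tits.Core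
  Cfsg.Agent.Tits.Exchange Cfsg.Agent.Nodes.Reps Cfsg.Agent.Nodes.BNOf Cfsg.Agent.Nodes.StabComb
  Cfsg.Agent.Nodes.Bruhat Cfsg.Agent.Nodes.OppDec Cfsg.Agent.Nodes.LeviDec Cfsg.Agent.Nodes.NormX
  Cfsg.Agent.Nodes.Coroot Cfsg.Agent.Nodes.RGDChev Cfsg.Agent.KFacts.RgdPar Cfsg.Agent.KFacts.RgdTI
  Cfsg.Agent.KFacts.RgdCent Cfsg.Agent.KFacts.RgdChevCoord Cfsg.Agent.Nodes.ChevCls
  Cfsg.Agent.OddHalf.NI.ModelChev Cfsg.Agent.H225.PPow
open Cfsg.Lie Cfsg.Agent.ChevalleyStructure Cfsg.Agent.ChevalleyStructure.Elts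
  Cfsg.Agent.ChevalleyStructure.RootVec Cfsg.Agent.ChevalleyStructure.NPerm
  Cfsg.Agent.ChevalleyStructure.CoxeterGeomTypes
open Cfsg.Agent.H701.F43.Cent (hF cF)
open Cfsg.Agent.H520.FC Cfsg.Agent.H930.FC

universe u

variable {K : Type u} [Field K]

/-! ### the coordinates of `A` -/

theorem xr_eq {r : ℕ} (hr : r < chevF4.nroots) (a : K) : (xr r a : ↥(chevF4.group K)) = H446.FC.X r a :=
  Subtype.ext (coe_xr hr a)

theorem tabI2 : ∀ r ∈ I2, ∀ s ∈ IV, chevF4.commTerms r s = [] := by decide +kernel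

/-- `A` is central in `R` -/
theorem comm_gen {r s : ℕ} (hr : r ∈ I2) (hs : s ∈ IV) (a t : K) :
    (xr s t * xr r a : ↥(chevF4.group K)) = xr r a * xr s t := by
  by_cases h : s = r
  · subst h
    rw [← xr_add (lt_IV s hs), ← xr_add (lt_IV s hs), add_comm]
  · have h1 := conj_xr (K := K) (lt_IV r (I2_sub r hr)) (lt_IV s hs) h (neg_IV r (I2_sub r hr) s hs) a t
    rw [tabI2 r hr s hs] at h1
    have h2 : (wd [] a t : ↥(chevF4.group K)) = 1 := rfl
    rw [h2, one_mul, mul_inv_eq_iff_eq_mul] at h1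
    exact h1

/-- `A` is central in `R` -/
theorem comm_A {a y : ↥(chevF4.group K)} (ha : a ∈ Q K {r | r ∈ I2}) (hy : y ∈ Q K {r | r ∈ IV}) : y * a = a * y := by
  have h1 : Q K {r | r ∈ IV} ≤ Subgroup.centralizer (Q K {r | r ∈ I2} : Set ↥(chevF4.group K)) := by
    refine Q_le fun s hs t => ?_
    rw [Subgroup.mem_centralizer_iff]
    intro v hv
    have h2 : Q K {r | r ∈ I2} ≤ Subgroup.centralizer ({xr s t} : Set ↥(chevF4.group K)) := by
      refine Q_le fun r hr b => ?_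
      rw [Subgroup.mem_centralizer_singleton_iff]
      exact (comm_gen hr hs b t).symm
    exact Subgroup.mem_centralizer_singleton_iff.1 (h2 hv)
  exact (Subgroup.mem_centralizer_iff.1 (h1 hy) a ha).symm

theorem A_le : Q K {r | r ∈ I2} ≤ Q K {r | r ∈ IV} := Q_le fun r hr a => mem_Q (I2_sub r hr) a

/-- every element of `A` has coordinates -/
theorem exists_E {a : ↥(chevF4.group K)} (ha : a ∈ Q K {r | r ∈ I2}) : ∃ t : ℕ → K, a = H446.FC.E t := by
  unfold Q at ha
  induction ha using Subgroup.closure_induction with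
  | mem x hx =>
    obtain ⟨r, hr, b, rfl⟩ := hx
    exact ⟨Pi.single r b, by rw [H446.FC.E_single hr, xr_eq (lt_IV r (I2_sub r hr))]⟩
  | one => exact ⟨0, H446.FC.E_zero.symm⟩
  | mul x y _ _ ihx ihy =>
    obtain ⟨t, rfl⟩ := ihx
    obtain ⟨s, rfl⟩ := ihy
    exact ⟨t + s, (H446.FC.E_add t s).symm⟩
  | inv x _ ih =>
    obtain ⟨t, rfl⟩ := ih
    refine ⟨-t, inv_eq_of_mul_eq_one_right ?_⟩
    rw [← H446.FC.E_add, add_neg_cancel, H446.FC.E_zero]

open Classical in
/-- the coordinate at `c` -/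
noncomputable def ac (c : ℕ) (a : ↥(chevF4.group K)) : K := if h : ∃ t : ℕ → K, a = H446.FC.E t then h.choose c else 0

theorem ac_E {c : ℕ} (hc : c ∈ I2) (t : ℕ → K) : ac c (H446.FC.E t) = t c := by
  have h : ∃ s : ℕ → K, H446.FC.E t = H446.FC.E s := ⟨t, rfl⟩
  rw [ac, dif_pos h]
  exact (H446.FC.E_inj h.choose_spec c hc).symm

theorem ac_mul {c : ℕ} (hc : c ∈ I2) {a b : ↥(chevF4.group K)} (ha : a ∈ Q K {r | r ∈ I2}) (hb : b ∈ Q K {r | r ∈ I2}) :
    ac c (a * b) = ac c a + ac c b := by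
  obtain ⟨t, rfl⟩ := exists_E ha
  obtain ⟨s, rfl⟩ := exists_E hb
  rw [← H446.FC.E_add, ac_E hc, ac_E hc, ac_E hc, Pi.add_apply]

theorem ac_one {c : ℕ} (hc : c ∈ I2) : ac c (1 : ↥(chevF4.group K)) = 0 := by
  rw [← H446.FC.E_zero, ac_E hc, Pi.zero_apply]

theorem ac_xr {c r : ℕ} (hc : c ∈ I2) (hr : r ∈ I2) (a : K) :
    ac c (xr r a : ↥(chevF4.group K)) = if r = c then a else 0 := by
  rw [xr_eq (lt_IV r (I2_sub r hr)), ← H446.FC.E_single hr, ac_E hc, Pi.single_apply]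
  by_cases h : r = c
  · subst h; simp
  · rw [if_neg h, if_neg fun h' => h h'.symm]

/-- the coefficient of the root `c` -/
def kap (γ s c : ℕ) : ℤ := (((chevF4.commTerms γ s).filter fun p => p.1 = c).map fun p => p.2.1).sum

theorem tab11 : ∀ r ∈ I1, ∀ s ∈ I1, ∀ p ∈ chevF4.commTerms r s, p.1 ∈ I2 ∧ p.2.2.1 = 1 ∧ p.2.2.2 = 1 := by decide +kernel

theorem ac_wd {c : ℕ} (hc : c ∈ I2) {l : List (ℕ × ℤ × ℕ × ℕ)} (hl : ∀ p ∈ l, p.1 ∈ I2 ∧ p.2.2.1 = 1 ∧ p.2.2.2 = 1)
    (a t : K) : (wd l a t : ↥(chevF4.group K)) ∈ Q K {r | r ∈ I2} ∧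
      ac c (wd l a t : ↥(chevF4.group K)) = (((l.filter fun p => p.1 = c).map fun p => p.2.1).sum : ℤ) * (a * (-t)) := by
  induction l with
  | nil =>
    refine ⟨one_mem _, ?_⟩
    show ac c (1 : ↥(chevF4.group K)) = _
    rw [ac_one hc]
    simp
  | cons p l ih =>
    obtain ⟨h1, h2⟩ := ih fun q hq => hl q (List.mem_cons_of_mem _ hq)
    obtain ⟨h3, h4, h5⟩ := hl p List.mem_cons_self
    rw [wd_cons]
    refine ⟨mul_mem (mem_Q (S := {r | r ∈ I2}) h3 _) h1, ?_⟩
    rw [ac_mul hc (mem_Q (S := {r | r ∈ I2}) h3 _) h1, h2, ac_xr hc h3, h4, h5, pow_one, pow_one, List.filter_cons]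
    by_cases h : p.1 = c
    · simp only [h, decide_true, if_true, List.map_cons, List.sum_cons, Int.cast_add]
      ring
    · simp only [h, decide_false, if_false]
      rw [zero_add]
      simp

/-! ### the commutator map -/

/-- `x⁻¹ y x y⁻¹` -/
def F (x y : ↥(chevF4.group K)) : ↥(chevF4.group K) := x⁻¹ * y * x * y⁻¹

variable [Finite K]

theorem acF {s c : ℕ} (hs : s ∈ I1) (hc : c ∈ I2) (t : K) {x : ↥(chevF4.group K)} (hx : x ∈ Q K {r | r ∈ IV}) :
    F x (xr s t) ∈ Q K {r | r ∈ I2} ∧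
      ac c (F x (xr s t)) = (I1.map fun γ => (kap γ s c : K) * cf γ x).sum * (-t) := by
  have hsV := I1_sub s hs
  have hys : (xr s t : ↥(chevF4.group K)) ∈ Q K {r | r ∈ IV} := mem_Q (S := {r | r ∈ IV}) hsV t
  have key : ∀ x ∈ Q K {r | r ∈ IV}, x ∈ Q K {r | r ∈ IV} ∧ F x (xr s t) ∈ Q K {r | r ∈ I2} ∧
      ac c (F x (xr s t)) = (I1.map fun γ => (kap γ s c : K) * cf γ x).sum * (-t) := by
    intro x hx
    have hx0 := hx
    unfold Q at hx
    induction hx using Subgroup.closure_induction with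
    | mem x hx =>
      obtain ⟨r, hr, a, rfl⟩ := hx
      refine ⟨hx0, ?_⟩
      rcases IV_cases r hr with h1 | h1
      · by_cases h : s = r
        · subst h
          have e : F (xr s a) (xr s t) = (1 : ↥(chevF4.group K)) := by
            have h2 : (xr s t * xr s a : ↥(chevF4.group K)) = xr s a * xr s t := by
              rw [← xr_add (lt_IV s hr), ← xr_add (lt_IV s hr), add_comm]
            rw [F, mul_assoc (xr s a)⁻¹, h2]
            group
          rw [e]
          refine ⟨one_mem _, ?_⟩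
          rw [ac_one hc]
          have h3 : ∀ γ ∈ I1, (kap γ s c : K) * cf γ (xr s a : ↥(chevF4.group K)) = 0 := by
            intro γ hγ
            by_cases h4 : s = γ
            · subst h4
              have h5 : kap s s c = 0 := by
                have h6 : ∀ s ∈ I1, chevF4.commTerms s s = [] := by decide +kernel
                rw [kap, h6 s hs]
                rfl
              rw [h5, Int.cast_zero, zero_mul]
            · rw [cf_ne hγ hr h4, mul_zero]
          rw [List.map_congr_left h3]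
          simp
        · have e : F (xr r a) (xr s t) = (wd (chevF4.commTerms r s) a t : ↥(chevF4.group K)) := by
            have h2 := conj_xr (K := K) (lt_IV r hr) (lt_IV s hsV) h (neg_IV r hr s hsV) a t
            have h3 := (ac_wd (K := K) hc (tab11 r h1 s hs) a t).1
            have h4 := comm_A h3 hx0
            rw [F, mul_assoc (xr r a)⁻¹, mul_assoc, h2, ← h4]
            group
          obtain ⟨h5, h6⟩ := ac_wd (K := K) hc (tab11 r h1 s hs) a t
          rw [e]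
          refine ⟨h5, ?_⟩
          rw [h6]
          have h7 : ∀ γ ∈ I1, (kap γ s c : K) * cf γ (xr r a : ↥(chevF4.group K)) = if γ = r then (kap r s c : K) * a else 0 := by
            intro γ hγ
            by_cases h8 : γ = r
            · subst h8
              rw [if_pos rfl, cf_self hγ]
            · rw [if_neg h8, cf_ne hγ hr (fun h9 => h8 h9.symm), mul_zero]
          rw [List.map_congr_left h7]
          have h9 : (I1.map fun γ => if γ = r then (kap r s c : K) * a else 0).sum = (kap r s c : K) * a := by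
            simp only [I1, List.mem_cons, List.not_mem_nil, or_false] at h1
            rcases h1 with rfl | rfl | rfl | rfl | rfl | rfl | rfl | rfl <;> simp [I1]
          rw [h9, kap]
          ring
      · have e : F (xr r a) (xr s t) = (1 : ↥(chevF4.group K)) := by
          rw [F, mul_assoc (xr r a)⁻¹, comm_gen h1 hsV]
          group
        rw [e]
        refine ⟨one_mem _, ?_⟩
        rw [ac_one hc]
        have h3 : ∀ γ ∈ I1, (kap γ s c : K) * cf γ (xr r a : ↥(chevF4.group K)) = 0 := by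
          intro γ hγ
          rw [cf_ne hγ hr (fun h9 => I1_not γ hγ (h9 ▸ h1)), mul_zero]
        rw [List.map_congr_left h3]
        simp
    | one =>
      refine ⟨one_mem _, ?_⟩
      have e : F 1 (xr s t) = (1 : ↥(chevF4.group K)) := by rw [F]; group
      rw [e]
      refine ⟨one_mem _, ?_⟩
      rw [ac_one hc]
      have h3 : ∀ γ ∈ I1, (kap γ s c : K) * cf γ (1 : ↥(chevF4.group K)) = 0 := by
        intro γ hγ
        rw [cf_one hγ, mul_zero]
      rw [List.map_congr_left h3]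
      simp
    | mul x y hx' hy' ihx ihy =>
      obtain ⟨a1, a2, a3⟩ := ihx hx'
      obtain ⟨b1, b2, b3⟩ := ihy hy'
      refine ⟨mul_mem a1 b1, ?_⟩
      have e : F (x * y) (xr s t) = F x (xr s t) * F y (xr s t) := by
        have h1 := comm_A a2 (inv_mem b1)
        calc F (x * y) (xr s t) = y⁻¹ * F x (xr s t) * (xr s t * y * (xr s t)⁻¹) := by rw [F, F]; group
          _ = F x (xr s t) * y⁻¹ * (xr s t * y * (xr s t)⁻¹) := by rw [h1]
          _ = F x (xr s t) * F y (xr s t) := by rw [F, F]; group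
      rw [e]
      refine ⟨mul_mem a2 b2, ?_⟩
      rw [ac_mul hc a2 b2, a3, b3]
      have h3 : ∀ γ ∈ I1, (kap γ s c : K) * cf γ (x * y) = (kap γ s c : K) * cf γ x + (kap γ s c : K) * cf γ y := by
        intro γ hγ
        rw [cf_mul hγ a1 b1, mul_add]
      rw [List.map_congr_left h3, List.sum_map_add, add_mul]
    | inv x hx' ih =>
      obtain ⟨a1, a2, a3⟩ := ih hx'
      refine ⟨inv_mem a1, ?_⟩
      have e : F x⁻¹ (xr s t) = (F x (xr s t))⁻¹ := by
        have h1 := comm_A (inv_mem a2) a1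
        calc F x⁻¹ (xr s t) = x * (x * F x (xr s t))⁻¹ := by rw [F, F]; group
          _ = x * (F x (xr s t))⁻¹ * x⁻¹ := by rw [mul_inv_rev]; group
          _ = (F x (xr s t))⁻¹ * x * x⁻¹ := by rw [h1]
          _ = (F x (xr s t))⁻¹ := by group
      rw [e]
      refine ⟨inv_mem a2, ?_⟩
      have h4 := ac_mul hc a2 (inv_mem a2)
      rw [mul_inv_cancel, ac_one hc, a3] at h4
      have h3 : ∀ γ ∈ I1, (kap γ s c : K) * cf γ x⁻¹ = -((kap γ s c : K) * cf γ x) := by
        intro γ hγ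
        rw [cf_inv hγ a1, mul_neg]
      have h5 : (I1.map fun γ => -((kap γ s c : K) * cf γ x)).sum = -(I1.map fun γ => (kap γ s c : K) * cf γ x).sum := by
        simp only [I1, List.map_cons, List.map_nil, List.sum_cons, List.sum_nil]
        ring
      rw [List.map_congr_left h3, h5, neg_mul]
      exact (neg_eq_of_add_eq_zero_right h4.symm).symm
  exact (key x hx).2

/-- the table: the two root groups for the coordinate `β` -/
def pr (β : ℕ) : ℕ × ℕ × ℕ × ℕ :=
  if β = 33 then (37, 41, 38, 42) else if β = 34 then (35, 41, 36, 42) else if β = 35 then (34, 41, 36, 43) else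
  if β = 36 then (34, 42, 35, 43) else if β = 37 then (33, 41, 38, 45) else if β = 38 then (33, 42, 37, 45) else
  if β = 39 then (33, 43, 37, 46) else (34, 45, 35, 46)

theorem pr_tab : ∀ β ∈ I1, (pr β).1 ∈ I1 ∧ (pr β).2.1 ∈ I2 ∧ (pr β).2.2.1 ∈ I1 ∧ (pr β).2.2.2 ∈ I2 := by decide +kernel

theorem pr_kap : ∀ β ∈ I1, ∀ γ ∈ I1,
    (kap γ (pr β).1 (pr β).2.1 = if γ = β then kap β (pr β).1 (pr β).2.1 else 0) ∧ kap γ (pr β).1 (pr β).2.2.2 = 0 ∧
    kap γ (pr β).2.2.1 (pr β).2.1 = 0 ∧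
    (kap γ (pr β).2.2.1 (pr β).2.2.2 = if γ = β then kap β (pr β).2.2.1 (pr β).2.2.2 else 0) := by decide +kernel

theorem pr_two : ∀ β ∈ I1, (kap β (pr β).1 (pr β).2.1 = 2 ∨ kap β (pr β).1 (pr β).2.1 = -2) ∧
    (kap β (pr β).2.2.1 (pr β).2.2.2 = 2 ∨ kap β (pr β).2.2.1 (pr β).2.2.2 = -2) := by decide +kernel

theorem sum_single {β : ℕ} (hβ : β ∈ I1) {f : ℕ → ℤ} {m : ℤ} (hf : ∀ γ ∈ I1, f γ = if γ = β then m else 0) (g : ℕ → K) :
    (I1.map fun γ => (f γ : K) * g γ).sum = (m : K) * g β := by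
  have h7 : ∀ γ ∈ I1, (f γ : K) * g γ = if γ = β then (m : K) * g β else 0 := by
    intro γ hγ
    rw [hf γ hγ]
    by_cases h8 : γ = β
    · subst h8
      rw [if_pos rfl, if_pos rfl]
    · rw [if_neg h8, if_neg h8, Int.cast_zero, zero_mul]
  rw [List.map_congr_left h7]
  simp only [I1, List.mem_cons, List.not_mem_nil, or_false] at hβ
  rcases hβ with rfl | rfl | rfl | rfl | rfl | rfl | rfl | rfl <;> simp [I1]

theorem sum_zero {f : ℕ → ℤ} (hf : ∀ γ ∈ I1, f γ = 0) (g : ℕ → K) : (I1.map fun γ => (f γ : K) * g γ).sum = 0 := by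
  have h7 : ∀ γ ∈ I1, (f γ : K) * g γ = 0 := fun γ hγ => by rw [hf γ hγ, Int.cast_zero, zero_mul]
  rw [List.map_congr_left h7]
  simp

/-- `F x` is multiplicative -/
theorem F_mul {x y z : ↥(chevF4.group K)} (hy : y ∈ Q K {r | r ∈ IV})
    (hz : F x z ∈ Q K {r | r ∈ I2}) : F x (y * z) = F x y * F x z := by
  have h1 := comm_A hz hy
  have e : F x (y * z) = x⁻¹ * y * x * (F x z * y⁻¹) := by rw [F, F]; group
  have h2 := comm_A hz (inv_mem hy)
  have e2 : F x y = x⁻¹ * y * x * y⁻¹ := rfl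
  rw [e, ← h2, e2]
  group

theorem F_mem {x y : ↥(chevF4.group K)} (hx : x ∈ Q K {r | r ∈ IV}) (hy : y ∈ Q K {r | r ∈ IV}) :
    F x y ∈ Q K {r | r ∈ I2} := by
  have h0 := hy
  unfold Q at hy
  induction hy using Subgroup.closure_induction with
  | mem y hy =>
    obtain ⟨s, hs, t, rfl⟩ := hy
    rcases IV_cases s hs with h1 | h1
    · exact (acF h1 (c := 41) (by decide) t hx).1
    · have e : F x (xr s t) = (1 : ↥(chevF4.group K)) := by
        have h2 := comm_A (mem_Q (S := {r | r ∈ I2}) h1 t) hx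
        rw [F, mul_assoc x⁻¹, ← h2]
        group
      rw [e]
      exact one_mem _
  | one =>
    have e : F x 1 = (1 : ↥(chevF4.group K)) := by rw [F]; group
    rw [e]
    exact one_mem _
  | mul y z hy' hz' ihy ihz =>
    rw [F_mul hy' (ihz hz')]
    exact mul_mem (ihy hy') (ihz hz')
  | inv y hy' ih =>
    have h1 := ih hy'
    have e : F x y⁻¹ = (F x y)⁻¹ := by
      have h2 := comm_A (inv_mem h1) (inv_mem hy')
      calc F x y⁻¹ = y⁻¹ * (y * x⁻¹ * y⁻¹ * x) * y := by rw [F]; group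
        _ = y⁻¹ * (F x y)⁻¹ * y := by rw [F]; group
        _ = (F x y)⁻¹ * y⁻¹ * y := by rw [h2]
        _ = (F x y)⁻¹ := by group
    rw [e]
    exact inv_mem h1

/-- the group of commutators -/
def BB {x : ↥(chevF4.group K)} (hx : x ∈ Q K {r | r ∈ IV}) : Subgroup ↥(chevF4.group K) where
  carrier := {b | ∃ y ∈ Q K {r | r ∈ IV}, b = F x y}
  one_mem' := ⟨1, one_mem _, by rw [F]; group⟩
  mul_mem' := by
    rintro _ _ ⟨y, hy, rfl⟩ ⟨z, hz, rfl⟩
    exact ⟨y * z, mul_mem hy hz, (F_mul hy (F_mem hx hz)).symm⟩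
  inv_mem' := by
    rintro _ ⟨y, hy, rfl⟩
    refine ⟨y⁻¹, inv_mem hy, ?_⟩
    have h1 := F_mul hy (F_mem hx (inv_mem hy))
    rw [mul_inv_cancel] at h1
    have e : F x 1 = (1 : ↥(chevF4.group K)) := by rw [F]; group
    rw [e] at h1
    exact (eq_inv_of_mul_eq_one_right h1.symm).symm

/-- **The commutator group.** -/
theorem exists_B (h2 : (2 : K) ≠ 0) {x : ↥(chevF4.group K)} (hx : x ∈ VK K {k | k ≠ 0})
    (hxA : x ∉ Q K {r | r ∈ I2}) : ∃ B : Subgroup ↥(chevF4.group K), B ≤ Q K {r | r ∈ I2} ∧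
      Nat.card K ^ 2 ≤ Nat.card B ∧ ∀ b ∈ B, ∃ y : ↥(chevF4.group K), x * b = y * x * y⁻¹ := by
  have hx' : x ∈ Q K {r | r ∈ IV} := by rw [← VK_eq]; exact hx
  refine ⟨BB hx', ?_, ?_, ?_⟩
  · rintro _ ⟨y, hy, rfl⟩
    exact F_mem hx' hy
  · obtain ⟨β, hβ, hne⟩ : ∃ β ∈ I1, cf β x ≠ 0 := by
      by_contra hcon
      push Not at hcon
      exact hxA (mem_two hx' hcon)
    obtain ⟨p1, p2, p3, p4⟩ := pr_tab β hβ
    obtain ⟨m1, m2⟩ := pr_two β hβ
    have hk := pr_kap β hβ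
    generalize hs1 : (pr β).1 = s1 at *
    generalize hc1 : (pr β).2.1 = c1 at *
    generalize hs2 : (pr β).2.2.1 = s2 at *
    generalize hc2 : (pr β).2.2.2 = c2 at *
    have hy1 : ∀ t : K, (xr s1 t : ↥(chevF4.group K)) ∈ Q K {r | r ∈ IV} := fun t => mem_Q (S := {r | r ∈ IV}) (I1_sub _ p1) t
    have hy2 : ∀ t : K, (xr s2 t : ↥(chevF4.group K)) ∈ Q K {r | r ∈ IV} := fun t => mem_Q (S := {r | r ∈ IV}) (I1_sub _ p3) t
    have z2 : ∀ m : ℤ, m = 2 ∨ m = -2 → (m : K) ≠ 0 := by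
      rintro m (rfl | rfl)
      · exact_mod_cast h2
      · push_cast
        exact neg_ne_zero.2 h2
    have e11 : ∀ t : K, ac c1 (F x (xr s1 t)) = (kap β s1 c1 : K) * cf β x * (-t) := fun t => by
      rw [(acF p1 p2 t hx').2, sum_single hβ (f := fun γ => kap γ s1 c1) (fun γ hγ => (hk γ hγ).1) fun γ => cf γ x]
    have e12 : ∀ t : K, ac c2 (F x (xr s1 t)) = 0 := fun t => by
      rw [(acF p1 p4 t hx').2, sum_zero (f := fun γ => kap γ s1 c2) (fun γ hγ => (hk γ hγ).2.1) fun γ => cf γ x, zero_mul]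
    have e21 : ∀ t : K, ac c1 (F x (xr s2 t)) = 0 := fun t => by
      rw [(acF p3 p2 t hx').2, sum_zero (f := fun γ => kap γ s2 c1) (fun γ hγ => (hk γ hγ).2.2.1) fun γ => cf γ x, zero_mul]
    have e22 : ∀ t : K, ac c2 (F x (xr s2 t)) = (kap β s2 c2 : K) * cf β x * (-t) := fun t => by
      rw [(acF p3 p4 t hx').2, sum_single hβ (f := fun γ => kap γ s2 c2) (fun γ hγ => (hk γ hγ).2.2.2) fun γ => cf γ x]
    have hinj : Function.Injective fun t : K × K =>
        (⟨F x (xr s1 t.1 * xr s2 t.2), ⟨_, mul_mem (hy1 t.1) (hy2 t.2), rfl⟩⟩ : BB hx') := by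
      rintro ⟨t, u⟩ ⟨t', u'⟩ h
      have h1 : F x (xr s1 t * xr s2 u) = F x (xr s1 t' * xr s2 u') := congrArg Subtype.val h
      rw [F_mul (hy1 t) (F_mem hx' (hy2 u)), F_mul (hy1 t') (F_mem hx' (hy2 u'))] at h1
      have h3 := congrArg (ac c1) h1
      have h4 := congrArg (ac c2) h1
      rw [ac_mul p2 (F_mem hx' (hy1 t)) (F_mem hx' (hy2 u)), ac_mul p2 (F_mem hx' (hy1 t')) (F_mem hx' (hy2 u')),
        e11, e11, e21, e21, add_zero, add_zero] at h3
      rw [ac_mul p4 (F_mem hx' (hy1 t)) (F_mem hx' (hy2 u)), ac_mul p4 (F_mem hx' (hy1 t')) (F_mem hx' (hy2 u')),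
        e12, e12, e22, e22, zero_add, zero_add] at h4
      have n1 := mul_ne_zero (z2 _ m1) hne
      have n2 := mul_ne_zero (z2 _ m2) hne
      have h5 := neg_injective (mul_left_cancel₀ n1 h3)
      have h6 := neg_injective (mul_left_cancel₀ n2 h4)
      rw [h5, h6]
    have hfin : Finite ↥(chevF4.group K) := inferInstance
    have h3 := Nat.card_le_card_of_injective _ hinj
    rwa [Nat.card_prod, ← pow_two] at h3
  · rintro _ ⟨y, hy, rfl⟩
    exact ⟨y, by rw [F]; group⟩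

end Cfsg.Agent.H230.FR
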